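/-
Simple groups of order `4 p^a q^b` with odd primes `p`, `q` have order 60.
-/
import Cfsg.Agent.S0948
import Cfsg.Agent.S4479
import Cfsg.Agent.KleinFourBlock.Setup
import Cfsg.Agent.Blocks.Orth.Blocks
import Cfsg.Agent.Chars.Apps.Burnside
import Cfsg.Agent.HerzogThree.Chars
import Cfsg.Agent.HerzogThree.Arith

set_option autoImplicit false
set_option linter.style.haveILetI false

universe u

open Cfsg

namespace CfsgLib.HerzogThree

open CfsgLib

/-- a non-abelian simple group is not solvable -/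
theorem not_isSolvable {G : Type u} [Group G] [IsSimpleGroup G] (hna : ¬ IsMulCommutative G) :
    ¬ Group.IsSolvable G := fun h => by
  haveI := h
  exact hna ⟨⟨fun u v => (IsSimpleGroup.comm_iff_isSolvable.mpr h) u v⟩⟩

/-- the arithmetic of the three degrees -/
theorem degrees_eq {p q x y w : ℕ} {ε : ℤ} (hε : ε = 1 ∨ ε = -1) (hp2 : p ≠ 2) (hq2 : q ≠ 2)
    (hx1 : 1 < x) (hy1 : 1 < y) (hw1 : 1 < w)
    (hxm : (4 : ℤ) ∣ (x : ℤ) - 1) (hym : (4 : ℤ) ∣ (y : ℤ) - ε) (hwm : (4 : ℤ) ∣ (w : ℤ) + 1)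
    (hdeg : 1 + (x : ℤ) + ε * y - w = 0)
    (hx : TwoSupp p q x) (hy : TwoSupp p q y) (hw : TwoSupp p q w)
    (hhalf : ∀ t : ℕ, t.Prime → t ≠ 2 →
      ((t : ℤ) ∣ (x : ℤ) + 1 ∨ (t : ℤ) ∣ (y : ℤ) + ε ∨ (t : ℤ) ∣ (w : ℤ) - 1) → t = p ∨ t = q) :
    x = 5 ∧ y = 3 ∧ w = 3 := by
  have hsupp : ∀ h : ℕ, Odd h →
      ((2 * h : ℤ) = (x : ℤ) + 1 ∨ (2 * h : ℤ) = (y : ℤ) + ε ∨ (2 * h : ℤ) = (w : ℤ) - 1) →
      TwoSupp p q h := by
    intro h hodd hh t ht hth
    have ht2 : t ≠ 2 := by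
      rintro rfl
      exact hodd.not_two_dvd_nat hth
    have hd : (t : ℤ) ∣ 2 * (h : ℤ) := (Int.natCast_dvd_natCast.mpr hth).mul_left 2
    refine hhalf t ht ht2 ?_
    rcases hh with e | e | e <;> rw [e] at hd
    · exact Or.inl hd
    · exact Or.inr (Or.inl hd)
    · exact Or.inr (Or.inr hd)
  have cop1 : ∀ n h : ℕ, n = 2 * h + 1 ∨ n + 1 = 2 * h → Nat.Coprime n h := by
    intro n h hn
    refine Nat.coprime_of_dvd' fun k _ h1 h2 => ?_
    rcases hn with hn | hn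
    · have h4 := Nat.dvd_sub h1 (h2.trans (dvd_mul_left h 2))
      rwa [hn, show 2 * h + 1 - 2 * h = 1 by omega] at h4
    · have h4 := Nat.dvd_sub (h2.trans (dvd_mul_left h 2)) h1
      rwa [← hn, show n + 1 - n = 1 by omega] at h4
  rcases hε with rfl | rfl
  · exfalso
    obtain ⟨A, hA, hAo⟩ : ∃ A : ℕ, x + 1 = 2 * A ∧ Odd A := ⟨(x + 1) / 2, by omega, by
      rw [Nat.odd_iff]; omega⟩
    obtain ⟨B, hB, hBo⟩ : ∃ B : ℕ, y + 1 = 2 * B ∧ Odd B := ⟨(y + 1) / 2, by omega, by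
      rw [Nat.odd_iff]; omega⟩
    obtain ⟨D, hD, hDo⟩ : ∃ D : ℕ, w = 2 * D + 1 ∧ Odd D := ⟨w / 2, by omega, by
      rw [Nat.odd_iff]; omega⟩
    refine no_pairs (p := p) (q := q) (a := x) (a' := A) (b := y) (b' := B) (X := D) (t := w)
      hp2 hq2 hx (hsupp A hAo (Or.inl (by omega))) hy (hsupp B hBo (Or.inr (Or.inl (by omega))))
      (hsupp D hDo (Or.inr (Or.inr (by omega)))) hw hx1 (by omega) hy1 (by omega) (by omega) hw1
      (cop1 x A (Or.inr hA)) (cop1 y B (Or.inr hB)) (cop1 w D (Or.inl hD)).symm (by omega) ?_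
    intro hxD
    refine Nat.coprime_of_dvd' fun k _ h1 h2 => ?_
    have h4 := Nat.dvd_sub (h2.trans (dvd_mul_left A 4)) h1
    rwa [show 4 * A - w = 1 by omega] at h4
  · obtain ⟨A, hA, hAo⟩ : ∃ A : ℕ, x + 1 = 2 * A ∧ Odd A := ⟨(x + 1) / 2, by omega, by
      rw [Nat.odd_iff]; omega⟩
    obtain ⟨B, hB, hBo⟩ : ∃ B : ℕ, y = 2 * B + 1 ∧ Odd B := ⟨y / 2, by omega, by
      rw [Nat.odd_iff]; omega⟩
    obtain ⟨D, hD, hDo⟩ : ∃ D : ℕ, w = 2 * D + 1 ∧ Odd D := ⟨w / 2, by omega, by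
      rw [Nat.odd_iff]; omega⟩
    have hsA := hsupp A hAo (Or.inl (by omega))
    have hsB := hsupp B hBo (Or.inr (Or.inl (by omega)))
    have hsD := hsupp D hDo (Or.inr (Or.inr (by omega)))
    by_cases hB1 : 1 < B
    · by_cases hD1 : 1 < D
      · exfalso
        refine no_pairs (p := p) (q := q) (a := y) (a' := B) (b := w) (b' := D) (X := A) (t := x)
          hp2 hq2 hy hsB hw hsD hsA hx hy1 hB1 hw1 hD1 (by omega) hx1
          (cop1 y B (Or.inl hB)) (cop1 w D (Or.inl hD)) (cop1 x A (Or.inr hA)).symm (by omega) ?_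
        intro hyA
        refine Nat.coprime_of_dvd' fun k _ h1 h2 => ?_
        have h4 := Nat.dvd_sub h1 (h2.trans (dvd_mul_left B 4))
        rwa [show x - 4 * B = 1 by omega] at h4
      · exfalso
        have hw3 : w = 3 := by omega
        exact three_case (w := y) hp2 hq2 (hw 3 Nat.prime_three (dvd_of_eq hw3.symm)) hy hsB hsA
          (by rwa [show y + 2 = x by omega]) hB (by omega) hB1
    · have hy3 : y = 3 := by omega
      by_cases hD1 : 1 < D
      · exfalso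
        exact three_case (w := w) hp2 hq2 (hy 3 Nat.prime_three (dvd_of_eq hy3.symm)) hw hsD hsA
          (by rwa [show w + 2 = x by omega]) hD (by omega) hD1
      · omega

theorem card_eq_sixty {G : Type u} [Group G] [Finite G] [IsSimpleGroup G]
    (hna : ¬ IsMulCommutative G) {p q a b : ℕ} (hp : p.Prime) (hq : q.Prime)
    (hp2 : p ≠ 2) (hq2 : q ≠ 2) (hcard : Nat.card G = 4 * p ^ a * q ^ b) : Nat.card G = 60 := by
  classical
  haveI := Fintype.ofFinite G
  haveI : Fact (Nat.Prime 2) := ⟨Nat.prime_two⟩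
  have hsolv := not_isSolvable hna
  have hg₀ : Odd (p ^ a * q ^ b) := ((hp.odd_of_ne_two hp2).pow).mul ((hq.odd_of_ne_two hq2).pow)
  have hG : Nat.card G = 4 * (p ^ a * q ^ b) := by rw [hcard]; ring
  have hnc : ¬ ∃ N : Subgroup G, N.Normal ∧ Nat.card N = p ^ a * q ^ b := by
    rintro ⟨N, hN, hNc⟩
    rcases hN.eq_bot_or_eq_top with h | h
    · rw [h, Subgroup.card_bot] at hNc
      exact hsolv (Chars.Apps.isSolvable_of_card_eq_pow_mul_pow G Nat.prime_two hp (a := 2) (b := 0)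
        (by rw [hG, ← hNc]; norm_num))
    · rw [h, Subgroup.card_top, hG] at hNc
      have : 0 < p ^ a * q ^ b := hg₀.pos
      omega
  obtain ⟨P⟩ := (inferInstance : Nonempty (Sylow 2 G))
  have hP := KleinFourBlock.isKleinFour_of_no_complement hg₀ hG hnc P
  have hone := KleinFourBlock.isConj_of_no_complement hg₀ hG hnc P
  haveI := hP
  haveI : Nontrivial (P : Subgroup G) :=
    Finite.one_lt_card_iff_nontrivial.1 (by rw [IsKleinFour.card_four]; norm_num)
  obtain ⟨z₀, hz₀⟩ := exists_ne (1 : (P : Subgroup G))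
  have hJ : orderOf (z₀ : G) = 2 :=
    KleinFourBlock.orderOf_eq_two_of_mem hP z₀.2 fun h => hz₀ (Subtype.ext h)
  obtain ⟨M, hM⟩ := Blocks.exists_isPModular 2 Nat.prime_two
  obtain ⟨ζ₂, ζ₃, ζ₄, ε, hε, h2, h3, h23, h24, h34, hB, hval, hx4, hy4, hw4, hrel⟩ :=
    Cfsg.Agent.S0948.result M hM P hP hone
  have h4 : (ζ₄ : G → ℂ) ≠ fun _ => 1 := by
    intro h
    have := (hval _ hJ).2.2
    rw [h] at this
    norm_num at this
  have hform := Cfsg.Agent.S4479.result M hM _ hg₀ hG hnc P (z₀ : G) z₀.2 hJ ζ₂ ζ₃ ζ₄ 1 ε (-1) hB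
    ⟨h2, h3, h4, h23, h24, h34⟩ ⟨Or.inl rfl, hε, Or.inr rfl⟩
    ⟨by simpa using (hval _ hJ).1, (hval _ hJ).2.1, by simpa using (hval _ hJ).2.2⟩
  have hx1 := one_lt_charDegree hna h2
  have hy1 := one_lt_charDegree hna h3
  have hw1 := one_lt_charDegree hna h4
  have hdeg : 1 + (charDegree (ζ₂ : G → ℂ) : ℤ) + ε * charDegree (ζ₃ : G → ℂ) -
      charDegree (ζ₄ : G → ℂ) = 0 := by
    have h := hrel 1 (by simp)
    simp only [← Chars.coe_charDegree] at h
    exact_mod_cast h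
  have hdx := Chars.charDegree_dvd_card ζ₂
  have hdy := Chars.charDegree_dvd_card ζ₃
  have hdw := Chars.charDegree_dvd_card ζ₄
  have hcdvd : Nat.card (Subgroup.centralizer ({(z₀ : G)} : Set G)) ∣ Nat.card G :=
    Subgroup.card_subgroup_dvd_card _
  set x := charDegree (ζ₂ : G → ℂ) with hxdef
  set y := charDegree (ζ₃ : G → ℂ) with hydef
  set w := charDegree (ζ₄ : G → ℂ) with hwdef
  set c := Nat.card (Subgroup.centralizer ({(z₀ : G)} : Set G)) with hc
  set cP := Nat.card (Subgroup.centralizer ((P : Subgroup G) : Set G)) with hcP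
  have hprime : ∀ t : ℕ, t.Prime → t ≠ 2 → t ∣ Nat.card G → t = p ∨ t = q := by
    intro t ht ht2 hd
    rw [hcard] at hd
    rcases ht.dvd_mul.mp hd with h | h
    · rcases ht.dvd_mul.mp h with h' | h'
      · exact absurd ((Nat.prime_dvd_prime_iff_eq ht Nat.prime_two).mp
          (ht.dvd_of_dvd_pow (show t ∣ 2 ^ 2 by simpa using h'))) ht2
      · exact Or.inl ((Nat.prime_dvd_prime_iff_eq ht hp).mp (ht.dvd_of_dvd_pow h'))
    · exact Or.inr ((Nat.prime_dvd_prime_iff_eq ht hq).mp (ht.dvd_of_dvd_pow h))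
  have hoddy : ¬ 2 ∣ y := by rcases hε with rfl | rfl <;> omega
  have hsupp : ∀ n : ℕ, n ∣ Nat.card G → ¬ 2 ∣ n → TwoSupp p q n := fun n hn h2n t ht htn =>
    hprime t ht (fun h => h2n (h ▸ htn)) (htn.trans hn)
  have hZ : (Nat.card G : ℤ) * cP ^ 2 * ((x + 1) * (y + ε) * (w - 1)) = 8 * (x * y * w) * c ^ 3 := by
    have hcP0 : (cP : ℚ) ≠ 0 := Nat.cast_ne_zero.2 Nat.card_pos.ne'
    have e1 : (x : ℚ) + 1 ≠ 0 := by positivity
    have e2 : (y : ℚ) + (ε : ℚ) ≠ 0 := by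
      have : (y : ℤ) + ε ≠ 0 := by rcases hε with rfl | rfl <;> omega
      exact_mod_cast this
    have e3 : (w : ℚ) - 1 ≠ 0 := by
      have : (w : ℤ) - 1 ≠ 0 := by omega
      exact_mod_cast this
    rw [Int.cast_one, Int.cast_neg, Int.cast_one, ← sub_eq_add_neg] at hform
    have h : (Nat.card G : ℚ) * (cP : ℚ) ^ 2 * (((x : ℚ) + 1) * ((y : ℚ) + ε) * ((w : ℚ) - 1)) =
        8 * ((x : ℚ) * y * w) * (c : ℚ) ^ 3 := by
      rw [hform]
      field_simp
    exact_mod_cast h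
  have hdegs := degrees_eq (x := x) (y := y) (w := w) hε hp2 hq2 hx1 hy1 hw1 hx4 hy4 hw4 hdeg
    (hsupp x hdx (by omega)) (hsupp y hdy hoddy) (hsupp w hdw (by omega)) (by
      intro t ht ht2 hor
      refine hprime t ht ht2 ?_
      have hdvd : (t : ℤ) ∣ 8 * ((x : ℤ) * y * w) * c ^ 3 := by
        rw [← hZ]
        rcases hor with h | h | h
        · exact dvd_mul_of_dvd_right (dvd_mul_of_dvd_left (dvd_mul_of_dvd_left h _) _) _
        · exact dvd_mul_of_dvd_right (dvd_mul_of_dvd_left (dvd_mul_of_dvd_right h _) _) _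
        · exact dvd_mul_of_dvd_right (dvd_mul_of_dvd_right h _) _
      have hdvd' : t ∣ 8 * (x * y * w) * c ^ 3 := by exact_mod_cast hdvd
      rcases ht.dvd_mul.mp hdvd' with h | h
      · rcases ht.dvd_mul.mp h with h' | h'
        · exact absurd ((Nat.prime_dvd_prime_iff_eq ht Nat.prime_two).mp
            (ht.dvd_of_dvd_pow (show t ∣ 2 ^ 3 by simpa using h'))) ht2
        · rcases ht.dvd_mul.mp h' with h'' | h''
          · rcases ht.dvd_mul.mp h'' with h5 | h5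
            · exact h5.trans hdx
            · exact h5.trans hdy
          · exact h''.trans hdw
      · exact (ht.dvd_of_dvd_pow h).trans hcdvd)
  obtain ⟨hx5, hy3, hw3⟩ := hdegs
  haveI : Fact (Nat.Prime 3) := ⟨Nat.prime_three⟩
  haveI : Fact (Nat.Prime 5) := ⟨by norm_num⟩
  have d3 : 3 ∣ Nat.card G := hw3 ▸ hdw
  have d5 : 5 ∣ Nat.card G := hx5 ▸ hdx
  have m3 := hprime 3 Nat.prime_three (by norm_num) d3
  have m5 := hprime 5 (by norm_num) (by norm_num) d5
  obtain ⟨R3⟩ := (inferInstance : Nonempty (Sylow 3 G))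
  obtain ⟨R5⟩ := (inferInstance : Nonempty (Sylow 5 G))
  have c3 := card_sylow_eq_of_degree hna R3 (χ := ζ₄) hw3 d3
  have c5 := card_sylow_eq_of_degree hna R5 (χ := ζ₂) hx5 d5
  obtain ⟨i, j, hij⟩ : ∃ i j : ℕ, Nat.card G = 4 * 3 ^ i * 5 ^ j := by
    rcases m3 with h3' | h3' <;> rcases m5 with h5' | h5' <;> subst h3'
    · omega
    · subst h5'; exact ⟨a, b, hcard⟩
    · subst h5'; exact ⟨b, a, by rw [hcard]; ring⟩
    · omega
  rw [R3.card_eq_multiplicity] at c3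
  rw [R5.card_eq_multiplicity] at c5
  have hf3 := Nat.pow_right_injective (a := 3) (by norm_num) (c3.trans (pow_one 3).symm)
  have hf5 := Nat.pow_right_injective (a := 5) (by norm_num) (c5.trans (pow_one 5).symm)
  have e4 : ∀ r : ℕ, r.Prime → r ≠ 2 → (4 : ℕ).factorization r = 0 := fun r hr hr2 =>
    Nat.factorization_eq_zero_of_not_dvd fun h => hr2 ((Nat.prime_dvd_prime_iff_eq hr Nat.prime_two).mp
      (hr.dvd_of_dvd_pow (show r ∣ 2 ^ 2 by simpa using h)))
  rw [hij, Nat.factorization_mul (by positivity) (by positivity),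
    Nat.factorization_mul (by norm_num) (by positivity), Finsupp.add_apply, Finsupp.add_apply,
    Nat.Prime.factorization_pow Nat.prime_three, Nat.Prime.factorization_pow (by norm_num : Nat.Prime 5)] at hf3 hf5
  rw [e4 3 Nat.prime_three (by norm_num), Finsupp.single_eq_same, Finsupp.single_eq_of_ne (by norm_num)] at hf3
  rw [e4 5 (by norm_num) (by norm_num), Finsupp.single_eq_same, Finsupp.single_eq_of_ne (by norm_num)] at hf5
  simp only [zero_add, add_zero] at hf3 hf5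
  rw [hij, hf3, hf5]
  norm_num

end CfsgLib.HerzogThree
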